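import Mathlib
import Cfsg.Agent.Lib.TcPres
import Cfsg.Agent.Lib.SchurDefs

set_option autoImplicit false

namespace Cfsg.Agent.TcData.SY224c

open Cfsg.Spor Cfsg.Agent.Lib.TcFacts Cfsg.Agent.Lib.TcBits Cfsg.Agent.Lib.TcPres Cfsg.Agent.Lib.SchurDefs.Y224c

/-- The relators of the presentation. -/
abbrev RR : Set (FreeGroup Gen) := coxRelators edges ∪ {r | r ∈ extra}

/-- The letter of a signed generator. -/
def enc : Gen → Bool → ℕ
  | .b, _ => 0
  | .c, _ => 1
  | .d, _ => 2
  | .e, _ => 3
  | .f, _ => 4
  | .g, _ => 5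
  | .j, _ => 6
  | .h, _ => 7
  | .i, _ => 8

/-- The letters. -/
noncomputable def gL : List (FreeGroup Gen) :=
  [FreeGroup.of .b, FreeGroup.of .c, FreeGroup.of .d, FreeGroup.of .e, FreeGroup.of .f, FreeGroup.of .g, FreeGroup.of .j, FreeGroup.of .h, FreeGroup.of .i]

/-- The nodes of the graph. -/
def nodesL : List Gen := [.b, .c, .d, .e, .f, .g, .j, .h, .i]

/-- The generators. -/
def gensL : List Gen := [.b, .c, .d, .e, .f, .g, .j, .h, .i]

/-- All relators, as a list. -/
noncomputable def relL : List (FreeGroup Gen) := relAll edges nodesL extra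

theorem hrel : ∀ r ∈ relL, PresentedGroup.mk RR r = 1 := relAll_spec (by decide)

theorem hnodes : ∀ x ∈ coxNodes edges, x ∈ nodesL := by decide

theorem hL : ∀ x b, enc x b < 9 := by
  intro x b; cases x <;> cases b <;> decide

theorem hlen : 9 = gL.length := rfl

theorem hℓ (macros : List (FreeGroup Gen)) : ∀ x b, letter RR gL macros (enc x b) =
    cond b (PresentedGroup.of x) (PresentedGroup.of x)⁻¹ := by
  intro x b
  cases x <;> cases b <;>
    first
      | rfl
      | exact map_inv _ _
      | exact (inv_of_node (by decide)).symm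

end Cfsg.Agent.TcData.SY224c
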